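-- helper96: project DG33 (S3670), package [PSICHAR]: `psi8` is a character of `B`
-- (induced from a nontrivial linear character of `P / Z`).
import Mathlib
import Cfsg.Agent.Lib.Helper14.DG33.Defs
import Cfsg.Agent.Lib.Helper75.CharInd
import Cfsg.Agent.Lib.Helper15.LinChar

set_option autoImplicit false

namespace Cfsg.Agent.Lib.Helper96.DG33

open Cfsg Cfsg.Agent.Lib.Helper14.DG33
open scoped ComplexConjugate

universe u

/-- distinct powers of `t` move a non-central element of `P` to distinct cosets of `Z` -/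
theorem tfree_sep {G : Type u} [Group G] {B P Z : Subgroup G} {t w : G}
    (D : RawDatum G B P Z t w) {p : G} (hp : p ∈ P) (hpZ : p ∉ Z) {k l : ℕ} (hl : l < k)
    (hk : k < 8) : (t ^ k * p * (t ^ k)⁻¹)⁻¹ * (t ^ l * p * (t ^ l)⁻¹) ∉ Z := by
  intro hu
  apply hpZ
  have hkl : t ^ k = t ^ l * t ^ (k - l) := by rw [← pow_add]; congr 1; omega
  have htl : (t ^ l)⁻¹ ∈ B := B.inv_mem (B.pow_mem D.tB l)
  have h1 := D.Znorm _ htl _ hu
  have h2 := Z.inv_mem h1
  have h3 : p⁻¹ * (t ^ (k - l) * p * (t ^ (k - l))⁻¹) ∈ Z := by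
    convert h2 using 1
    rw [hkl]
    generalize t ^ l = a
    generalize t ^ (k - l) = c
    group
  have h4 : t ^ (k - l) * p * (t ^ (k - l))⁻¹ * p⁻¹ ∈ Z := by
    have h5 := D.Zcent _ h3 p hp
    generalize t ^ (k - l) * p * (t ^ (k - l))⁻¹ = X at h3 h5 ⊢
    have e : p⁻¹ * X * p = X := by rw [h5]; group
    have e2 : X * p⁻¹ = p⁻¹ * X := by
      calc X * p⁻¹ = (p⁻¹ * X * p) * p⁻¹ := by rw [e]
        _ = p⁻¹ * X := by group
    rw [e2]; exact h3
  exact D.tfree (k - l) (by omega) (by omega) p hp h4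

/-- a nontrivial linear character of a group of order 9 -/
theorem exists_char_ne_one (Q : Type u) [Group Q] [Finite Q] (hQ : Nat.card Q = 9) {a : Q}
    (ha : a ≠ 1) : ∃ φ : Q →* ℂˣ, φ a ≠ 1 := by
  have : Fact (Nat.Prime 3) := ⟨by norm_num⟩
  let _ : CommGroup Q := IsPGroup.commGroupOfCardEqPrimeSq (p := 3) (by rw [hQ]; norm_num)
  exact CommGroup.exists_apply_ne_one_of_hasEnoughRootsOfUnity Q ℂ ha

/-- the values of a nontrivial linear character sum to zero -/
theorem sum_char_eq_zero {Q : Type u} [Group Q] [Fintype Q] (φ : Q →* ℂˣ) {a : Q}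
    (ha : φ a ≠ 1) : ∑ q : Q, ((φ q : ℂˣ) : ℂ) = 0 := by
  have h := sum_hom_units_eq_zero ((Units.coeHom ℂ).comp φ) (by
    intro h1
    apply ha
    have h2 := DFunLike.congr_fun h1 a
    exact Units.ext (by simpa using h2))
  simpa using h

/-- the linear character `μ` of `P`, trivial on `Z`, whose `⟨t⟩`-orbit sums are `-1` -/
theorem exists_mu {G : Type u} [Group G] [Finite G] {B P Z : Subgroup G} {t w : G}
    (D : Datum G B P Z t w) :
    ∃ μ : P →* ℂˣ, (∀ z : P, (z : G) ∈ Z → μ z = 1) ∧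
      ∀ (p : G) (hp : p ∈ P), p ∉ Z →
        ∑ k ∈ Finset.range 8,
          ((μ ⟨t ^ k * p * (t ^ k)⁻¹, D.raw.Pnorm _ (B.pow_mem D.raw.tB k) _ hp⟩ : ℂˣ) : ℂ)
            = -1 := by
  classical
  let N : Subgroup P := Z.subgroupOf P
  have hN : N.Normal := ⟨fun n hn g => by
    have h1 : (n : G) ∈ Z := Subgroup.mem_subgroupOf.1 hn
    have h2 := D.raw.Zcent _ h1 _ g.2
    have h3 : g * n * g⁻¹ = n := by
      apply Subtype.ext
      simp only [Subgroup.coe_mul, Subgroup.coe_inv]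
      rw [← h2]; group
    rw [h3]; exact hn⟩
  have hcardN : Nat.card N = 3 := by
    rw [Nat.card_congr (Subgroup.subgroupOfEquivOfLe D.raw.ZP).toEquiv]; exact D.cardZ
  have hQ : Nat.card (P ⧸ N) = 9 := by
    have h := Subgroup.card_eq_card_quotient_mul_card_subgroup N
    rw [D.cardP, hcardN] at h
    omega
  obtain ⟨p₀, hp₀, hp₀Z⟩ := D.raw.Pne
  have ha : (QuotientGroup.mk ⟨p₀, hp₀⟩ : P ⧸ N) ≠ 1 := by
    rw [Ne, QuotientGroup.eq_one_iff]
    exact fun h => hp₀Z (Subgroup.mem_subgroupOf.1 h)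
  obtain ⟨φ, hφ⟩ := exists_char_ne_one (P ⧸ N) hQ ha
  have : Fintype (P ⧸ N) := Fintype.ofFinite _
  have hsum := sum_char_eq_zero φ hφ
  refine ⟨φ.comp (QuotientGroup.mk' N), ?_, ?_⟩
  · intro z hz
    show φ (QuotientGroup.mk z) = 1
    rw [(QuotientGroup.eq_one_iff z).2 (Subgroup.mem_subgroupOf.2 hz), map_one]
  · intro p hp hpZ
    let g : ℕ → P ⧸ N := fun k =>
      QuotientGroup.mk ⟨t ^ k * p * (t ^ k)⁻¹, D.raw.Pnorm _ (B.pow_mem D.raw.tB k) _ hp⟩
    have hg1 : ∀ k, g k ≠ 1 := by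
      intro k h
      rw [QuotientGroup.eq_one_iff] at h
      have h1 : t ^ k * p * (t ^ k)⁻¹ ∈ Z := Subgroup.mem_subgroupOf.1 h
      have h2 := D.raw.Znorm _ (B.inv_mem (B.pow_mem D.raw.tB k)) _ h1
      apply hpZ
      convert h2 using 1
      group
    have hginj : ∀ k l, l < k → k < 8 → g k ≠ g l := by
      intro k l hl hk h
      rw [QuotientGroup.eq] at h
      exact tfree_sep D.raw hp hpZ hl hk (Subgroup.mem_subgroupOf.1 h)
    have hinj : Set.InjOn g (Finset.range 8 : Set ℕ) := by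
      intro k hk l hl h
      simp only [Finset.coe_range, Set.mem_Iio] at hk hl
      by_contra hne
      rcases Nat.lt_or_gt_of_ne hne with h' | h'
      · exact hginj l k h' hl h.symm
      · exact hginj k l h' hk h
    have himg : (Finset.range 8).image g = Finset.univ.erase 1 := by
      apply Finset.eq_of_subset_of_card_le
      · intro q hq
        obtain ⟨k, -, rfl⟩ := Finset.mem_image.1 hq
        exact Finset.mem_erase.2 ⟨hg1 k, Finset.mem_univ _⟩
      · rw [Finset.card_image_of_injOn hinj, Finset.card_range,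
          Finset.card_erase_of_mem (Finset.mem_univ _), Finset.card_univ,
          ← Nat.card_eq_fintype_card, hQ]
    have h3 : ∑ k ∈ Finset.range 8, ((φ (g k) : ℂˣ) : ℂ) =
        ∑ q ∈ (Finset.range 8).image g, ((φ q : ℂˣ) : ℂ) :=
      (Finset.sum_image (f := fun q => ((φ q : ℂˣ) : ℂ)) hinj).symm
    show ∑ k ∈ Finset.range 8, ((φ (g k) : ℂˣ) : ℂ) = -1
    rw [h3, himg, Finset.sum_erase_eq_sub (Finset.mem_univ _), hsum, map_one]
    simp

/-- [PSICHAR] `psi8` is a character of `B`. -/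
theorem pkgPsiChar : PkgPsiChar.{u} := by
  intro G _ _ B P Z t w D
  classical
  obtain ⟨μ, hμZ, hμS⟩ := exists_mu D
  have : Fintype B := Fintype.ofFinite _
  let P' : Subgroup B := P.subgroupOf B
  let e : P' ≃* P := Subgroup.subgroupOfEquivOfLe D.raw.PB
  let μ' : P' →* ℂˣ := μ.comp e.toMonoidHom
  have hχ : IsCharacter B (indFun P' (fun p => ((μ' p : ℂˣ) : ℂ))) :=
    Cfsg.Agent.Lib.Helper75.isCharacter_indFun P' (Cfsg.Agent.Lib.Helper15.isCharacter_of_hom μ')
  have hcardP' : (Nat.card P' : ℂ) = 27 := by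
    rw [Nat.card_congr e.toEquiv, D.cardP]; norm_num
  have hext : ∀ (x : B) (hx : (x : G) ∈ P),
      extendByZero P' (fun p => ((μ' p : ℂˣ) : ℂ)) x = ((μ ⟨(x : G), hx⟩ : ℂˣ) : ℂ) := by
    intro x hx
    have hx' : x ∈ P' := Subgroup.mem_subgroupOf.2 hx
    rw [Cfsg.Agent.Lib.Helper75.extendByZero_mem P' _ hx']
    rfl
  have hext0 : ∀ (x : B), (x : G) ∉ P →
      extendByZero P' (fun p => ((μ' p : ℂˣ) : ℂ)) x = 0 := by
    intro x hx
    exact Cfsg.Agent.Lib.Helper75.extendByZero_not_mem P' _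
      (fun h => hx (Subgroup.mem_subgroupOf.1 h))
  convert hχ using 1
  funext b
  unfold psi8 indFun
  rw [hcardP']
  by_cases hbZ : (b : G) ∈ Z
  · rw [if_pos hbZ]
    have h1 : ∀ x : B, extendByZero P' (fun p => ((μ' p : ℂˣ) : ℂ)) (x⁻¹ * b * x) = 1 := by
      intro x
      have hz : ((x⁻¹ * b * x : B) : G) ∈ Z := by
        have h := D.raw.Znorm _ (B.inv_mem x.2) _ hbZ
        simpa using h
      rw [hext _ (D.raw.ZP hz), hμZ _ hz]
      rfl
    simp only [h1, Finset.sum_const, Finset.card_univ, nsmul_eq_mul, mul_one]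
    rw [← Nat.card_eq_fintype_card, D.cardB]
    norm_num
  · rw [if_neg hbZ]
    by_cases hbP : (b : G) ∈ P
    · rw [if_pos hbP]
      have hPn : ∀ k : ℕ, t ^ k * (b : G) * (t ^ k)⁻¹ ∈ P := fun k =>
        D.raw.Pnorm _ (B.pow_mem D.raw.tB k) _ hbP
      have h1 : ∑ x : B, extendByZero P' (fun p => ((μ' p : ℂˣ) : ℂ)) (x⁻¹ * b * x) =
          ∑ x : B, extendByZero P' (fun p => ((μ' p : ℂˣ) : ℂ)) (x * b * x⁻¹) :=
        Fintype.sum_equiv (Equiv.inv B) _ _ (fun x => by simp)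
      let φ : Fin 8 × P' → B := fun kp => (kp.2 : B) * (⟨t, D.raw.tB⟩ : B) ^ (kp.1 : ℕ)
      have hφv : ∀ kp : Fin 8 × P', ((φ kp : B) : G) = ((kp.2 : B) : G) * t ^ (kp.1 : ℕ) := by
        intro kp
        simp [φ]
      have hφ : Function.Bijective φ := by
        rw [Nat.bijective_iff_injective_and_card]
        refine ⟨?_, ?_⟩
        · rintro ⟨k, p⟩ ⟨l, q⟩ h
          have h' : ((p : B) : G) * t ^ (k : ℕ) = ((q : B) : G) * t ^ (l : ℕ) := by
            have h0 := congrArg (Subtype.val) h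
            rw [hφv, hφv] at h0
            exact h0
          have ht8 : t ^ 8 = 1 := by rw [← D.raw.ordt]; exact pow_orderOf_eq_one t
          have hinv : (t ^ (l : ℕ))⁻¹ = t ^ (8 - (l : ℕ)) := by
            apply inv_eq_of_mul_eq_one_right
            rw [← pow_add, show (l : ℕ) + (8 - (l : ℕ)) = 8 by omega, ht8]
          have hmem : t ^ ((k : ℕ) + (8 - (l : ℕ))) ∈ P := by
            have hpq : ((p : B) : G)⁻¹ * ((q : B) : G) ∈ P :=
              P.mul_mem (P.inv_mem (Subgroup.mem_subgroupOf.1 p.2)) (Subgroup.mem_subgroupOf.1 q.2)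
            have h5 : t ^ ((k : ℕ) + (8 - (l : ℕ))) = ((p : B) : G)⁻¹ * ((q : B) : G) := by
              rw [pow_add, ← hinv, eq_inv_mul_iff_mul_eq, ← mul_assoc, h', mul_inv_cancel_right]
            rw [h5]; exact hpq
          have h6 := D.raw.PT _ hmem
          have h8 : 8 ∣ (k : ℕ) + (8 - (l : ℕ)) := by
            have h9 := orderOf_dvd_of_pow_eq_one h6
            rwa [D.raw.ordt] at h9
          have hkl : (k : ℕ) = (l : ℕ) := by omega
          have hkl' : k = l := Fin.ext hkl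
          subst hkl'
          have hpq : (p : B) = (q : B) := Subtype.ext (mul_right_cancel h')
          rw [Subtype.ext hpq]
        · rw [Nat.card_prod, Nat.card_eq_fintype_card, Fintype.card_fin,
            Nat.card_congr e.toEquiv, D.cardP, D.cardB]
      have h2 : ∑ x : B, extendByZero P' (fun p => ((μ' p : ℂˣ) : ℂ)) (x * b * x⁻¹) =
          ∑ kp : Fin 8 × P',
            extendByZero P' (fun p => ((μ' p : ℂˣ) : ℂ)) (φ kp * b * (φ kp)⁻¹) :=
        (Fintype.sum_bijective φ hφ _ _ (fun _ => rfl)).symm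
      have h3 : ∀ kp : Fin 8 × P',
          extendByZero P' (fun p => ((μ' p : ℂˣ) : ℂ)) (φ kp * b * (φ kp)⁻¹) =
            ((μ ⟨t ^ (kp.1 : ℕ) * (b : G) * (t ^ (kp.1 : ℕ))⁻¹, hPn kp.1⟩ : ℂˣ) : ℂ) := by
        rintro ⟨k, p⟩
        have hpP : ((p : B) : G) ∈ P := Subgroup.mem_subgroupOf.1 p.2
        have hval : ((φ (k, p) * b * (φ (k, p))⁻¹ : B) : G) =
            ((p : B) : G) * (t ^ (k : ℕ) * (b : G) * (t ^ (k : ℕ))⁻¹) * ((p : B) : G)⁻¹ := by
          simp only [Subgroup.coe_mul, Subgroup.coe_inv, hφv]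
          group
        have hmem : ((φ (k, p) * b * (φ (k, p))⁻¹ : B) : G) ∈ P := by
          rw [hval]
          exact P.mul_mem (P.mul_mem hpP (hPn k)) (P.inv_mem hpP)
        rw [hext _ hmem]
        have h7 : (⟨_, hmem⟩ : P) = ⟨_, hpP⟩ * ⟨_, hPn k⟩ * (⟨_, hpP⟩ : P)⁻¹ :=
          Subtype.ext hval
        rw [h7, map_mul, map_mul, map_inv, mul_comm, inv_mul_cancel_left]
      have h4 : ∑ kp : Fin 8 × P',
          ((μ ⟨t ^ (kp.1 : ℕ) * (b : G) * (t ^ (kp.1 : ℕ))⁻¹, hPn kp.1⟩ : ℂˣ) : ℂ) =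
            27 * (-1) := by
        rw [Fintype.sum_prod_type]
        have h5 : ∀ k : Fin 8,
            ∑ _p : P', ((μ ⟨t ^ (k : ℕ) * (b : G) * (t ^ (k : ℕ))⁻¹, hPn k⟩ : ℂˣ) : ℂ) =
              27 * ((μ ⟨t ^ (k : ℕ) * (b : G) * (t ^ (k : ℕ))⁻¹, hPn k⟩ : ℂˣ) : ℂ) := by
          intro k
          rw [Finset.sum_const, Finset.card_univ, nsmul_eq_mul, ← Nat.card_eq_fintype_card,
            hcardP']
        rw [Finset.sum_congr rfl (fun k _ => h5 k), ← Finset.mul_sum,
          Fin.sum_univ_eq_sum_range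
            (fun k => ((μ ⟨t ^ k * (b : G) * (t ^ k)⁻¹, hPn k⟩ : ℂˣ) : ℂ)) 8,
          hμS _ hbP hbZ]
      rw [h1, h2, Finset.sum_congr rfl (fun kp _ => h3 kp), h4]
      norm_num
    · rw [if_neg hbP]
      have h1 : ∀ x : B, extendByZero P' (fun p => ((μ' p : ℂˣ) : ℂ)) (x⁻¹ * b * x) = 0 := by
        intro x
        apply hext0
        intro h
        apply hbP
        have h2 := D.raw.Pnorm _ x.2 _ h
        convert h2 using 1
        simp only [Subgroup.coe_mul, Subgroup.coe_inv]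
        group
      simp [h1]

end Cfsg.Agent.Lib.Helper96.DG33
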